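import Cfsg.Agent.CosetEnum.MU35.AData

/-! Certificate of a coset enumeration (generated data, owner: helper7). -/

set_option autoImplicit false
set_option maxRecDepth 1000000

namespace Cfsg.Agent.CosetEnum.MU35A

def ck0 : CK := .cons 32 32 0x8800480040000800010048024002011001100000080008004022002200900012001001100090008000800400200900000401200100880088024000010048004022002200900080001000100080240220000080040220000401200100480440000800402200004012001004804400040020090001 ( .cons 28 28 0x40000000100000080011000100022000040220110088001100480088008800880001008800880002200020010048024022000001000804400440220002009000100002011000100080440120110009000220012001000020000401200900080440044000080008004022000201100480009 ( .nil ))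

theorem part0 : chunks P L 60 ck0 0 60 = true := by decide +kernel

end Cfsg.Agent.CosetEnum.MU35A
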