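import Cfsg.Agent.CosetEnum.Step
import Cfsg.Agent.CosetEnum.Front2
import Cfsg.Agent.CosetEnum.MU35.AP0
import Cfsg.Agent.CosetEnum.MU35.BP0
import Cfsg.Agent.CosetEnum.MU35.CP0

/-! Certificates of coset enumerations and tables (generated, owner: helper28). -/

set_option autoImplicit false
set_option maxRecDepth 1000000

namespace Cfsg.Agent.CosetEnum.MU35A

theorem st : staticA 6 iv (RL.map expand) subs P L = true := by decide +kernel

theorem seg : Seg P L P.m 60 :=
  (Seg.nil).snoc part0

theorem cert : Cert 6 iv RL subs 60 := fun g H hl hrels hsubs =>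
  upperA g H 6 iv hl (RL.map expand) subs hrels hsubs P L rfl st seg

end Cfsg.Agent.CosetEnum.MU35A
namespace Cfsg.Agent.CosetEnum.MU35B

theorem st : staticA 8 iv (RL.map expand) subs P L = true := by decide +kernel

theorem seg : Seg P L P.m 42 :=
  (Seg.nil).snoc part0

theorem cert : Cert 8 iv RL subs 42 := fun g H hl hrels hsubs =>
  upperA g H 8 iv hl (RL.map expand) subs hrels hsubs P L rfl st seg

end Cfsg.Agent.CosetEnum.MU35B
namespace Cfsg.Agent.CosetEnum.MU35C

theorem st : staticA 10 iv (RL.map expand) subs P L = true := by decide +kernel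

theorem seg : Seg P L P.m 50 :=
  (Seg.nil).snoc part0

theorem cert : Cert 10 iv RL subs 50 := fun g H hl hrels hsubs =>
  upperA g H 10 iv hl (RL.map expand) subs hrels hsubs P L rfl st seg

end Cfsg.Agent.CosetEnum.MU35C
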